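import Mathlib
import Cfsg.Agent.OddChar.Twist
import Cfsg.Agent.CharExt.Linear
import Cfsg.Agent.CharExt.Gallagher
import Cfsg.Agent.CharInd.Correspondence
import Cfsg.Agent.Char.Product
import Cfsg.Agent.Char.Integrality

/-!
# The canonical extension for a coprime cyclic group of operators (Isaacs 13.6, 13.14)
-/

set_option autoImplicit false
set_option linter.style.haveILetI false
set_option linter.unusedSectionVars false

namespace Cfsg.Agent.CyclicCorr

open Cfsg Cfsg.Agent Subgroup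
open scoped Classical ComplexConjugate

universe u

/-- `Γ = GS` with `S` cyclic of order prime to `|G|`. -/
structure Hyp {Γ : Type u} [Group Γ] (G S : Subgroup Γ) : Prop where
  norm : ∀ s ∈ S, ∀ g ∈ G, s * g * s⁻¹ ∈ G
  cop : (Nat.card G).Coprime (Nat.card S)
  top : G ⊔ S = ⊤
  cyc : IsCyclic S

variable {Γ : Type u} [Group Γ] [Fintype Γ] {G S : Subgroup Γ} [Fintype G] [Fintype S]

theorem Hyp.normal (h : Hyp G S) : G.Normal := by
  refine normalizer_eq_top_iff.1 (eq_top_iff.2 (h.top ▸ sup_le le_normalizer fun s hs => ?_))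
  refine mem_normalizer_iff.2 fun g => ⟨fun hg => h.norm s hs g hg, fun hg => ?_⟩
  simpa [mul_assoc] using h.norm s⁻¹ (S.inv_mem hs) _ hg

theorem Hyp.bijective (h : Hyp G S) :
    Function.Bijective fun p : G × S => (p.1 : Γ) * p.2 := by
  haveI := h.normal
  refine ⟨Subgroup.mul_injective_of_disjoint (disjoint_of_coprime_natCard h.cop), fun x => ?_⟩
  have hx : x ∈ G ⊔ S := h.top ▸ mem_top x
  rw [mem_sup_of_normal_left] at hx
  obtain ⟨g, hg, s, hs, e⟩ := hx
  exact ⟨(⟨g, hg⟩, ⟨s, hs⟩), e⟩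

theorem Hyp.index_eq (h : Hyp G S) : G.index = Nat.card S := by
  have h1 := Nat.card_congr (Equiv.ofBijective _ h.bijective)
  rw [Nat.card_prod, ← G.card_mul_index] at h1
  exact (Nat.eq_of_mul_eq_mul_left Nat.card_pos h1).symm

/-- The projection onto `S`. -/
theorem Hyp.exists_proj (h : Hyp G S) :
    ∃ π : Γ →* S, ∀ (g : G) (t : S), π ((g : Γ) * t) = t := by
  haveI := h.normal
  have hb : Function.Bijective ((QuotientGroup.mk' G).comp S.subtype) := by
    refine ⟨(injective_iff_map_eq_one _).2 fun t ht => ?_, fun y => ?_⟩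
    · exact Subtype.ext ((disjoint_of_coprime_natCard h.cop).le_bot
        (mem_inf.2 ⟨(QuotientGroup.eq_one_iff _).1 ht, t.2⟩))
    · obtain ⟨x, rfl⟩ := QuotientGroup.mk'_surjective G y
      obtain ⟨⟨g, t⟩, rfl⟩ := h.bijective.2 x
      refine ⟨t, ?_⟩
      simp [(QuotientGroup.eq_one_iff (g : Γ)).2 g.2]
  refine ⟨(MulEquiv.ofBijective _ hb).symm.toMonoidHom.comp (QuotientGroup.mk' G), fun g t => ?_⟩
  apply (MulEquiv.ofBijective _ hb).injective
  simp [(QuotientGroup.eq_one_iff (g : Γ)).2 g.2]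

theorem Hyp.comm (h : Hyp G S) (a b : S) : a * b = b * a := by
  haveI := h.cyc
  exact IsMulCommutative.is_comm.comm a b

/-- Vanishing of all Fourier coefficients. -/
theorem Hyp.fourier (h : Hyp G S) {u : S → ℂ}
    (hu : ∀ l : IrrCharacter S, classInner u (l : S → ℂ) = 0) : u = 0 :=
  Char.eq_zero_of_classInner_irr_eq_zero
    (fun g x => by rw [h.comm x g, mul_inv_cancel_right]) hu

/-! ### The coset of an element of `S` -/

section Coset

variable {C : Subgroup Γ} [Fintype C]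

theorem exists_pow_fix (h : Hyp G S) (hCG : C ≤ G) (t : S) :
    ∃ e : ℕ, ∀ c ∈ C, Commute c (t : Γ) → (c * (t : Γ)) ^ e = t := by
  obtain ⟨e, he1, he2⟩ := Nat.chineseRemainder h.cop 0 1
  refine ⟨e, fun c hc hct => ?_⟩
  have h1 : c ^ e = 1 := by
    refine orderOf_dvd_iff_pow_eq_one.1 ?_
    have : orderOf c ∣ Nat.card G := by
      rw [show orderOf c = orderOf (⟨c, hCG hc⟩ : G) from
        (Subgroup.orderOf_coe (⟨c, hCG hc⟩ : G))]
      exact orderOf_dvd_natCard _
    exact this.trans (Nat.modEq_zero_iff_dvd.1 he1)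
  have h2 : (t : Γ) ^ e = t := by
    have := pow_eq_pow_iff_modEq.2 (he2.of_dvd (orderOf_dvd_natCard t))
    rw [pow_one] at this
    exact congrArg Subtype.val this
  rw [hct.mul_pow, h1, h2, one_mul]

/-- The values on a coset `G t` against the values on `C t`, `C = C_G(t)`. -/
theorem sum_coset (h : Hyp G S) (t : S) (hC : G ⊓ centralizer ({(t : Γ)} : Set Γ) = C)
    {F : Γ → ℂ} (hF : IsClassFunction Γ F) :
    (Nat.card C : ℂ) * ∑ y : G, F ((y : Γ) * t) = (Nat.card G : ℂ) * ∑ c : C, F ((c : Γ) * t) := by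
  haveI := h.normal
  have hmem : ∀ x, x ∈ C ↔ x ∈ G ∧ (t : Γ) * x = x * t := fun x => by
    rw [← hC, mem_inf, mem_centralizer_singleton_iff, eq_comm]
  have hCG : C ≤ G := fun x hx => ((hmem x).1 hx).1
  obtain ⟨e, he⟩ := exists_pow_fix h hCG t
  have hcomm : ∀ c : C, Commute (c : Γ) (t : Γ) := fun c => ((hmem _).1 c.2).2.symm
  let M : G × C → G := fun p => ⟨(p.1 : Γ) * p.2 * ((t : Γ) * (p.1 : Γ)⁻¹ * (t : Γ)⁻¹),
    G.mul_mem (G.mul_mem p.1.2 (hCG p.2.2)) (h.norm t t.2 _ (G.inv_mem p.1.2))⟩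
  have hM : ∀ p, (M p : Γ) * t = (p.1 : Γ) * ((p.2 : Γ) * t) * (p.1 : Γ)⁻¹ := fun p => by
    simp only [M]; group
  have hfib : ∀ p₀ : G × C, (Finset.univ.filter fun p => M p = M p₀).card = Nat.card C := by
    intro p₀
    rw [Nat.card_eq_fintype_card, ← Fintype.card_subtype]
    refine (Fintype.card_congr (Equiv.ofBijective (fun d : C => (⟨(p₀.1 * ⟨d, hCG d.2⟩,
      d⁻¹ * p₀.2 * d), Subtype.ext (mul_right_cancel (b := (t : Γ)) ?_)⟩ :
        {p // M p = M p₀})) ⟨?_, ?_⟩)).symm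
    · rw [hM, hM]
      push_cast
      rw [mul_assoc ((d : Γ)⁻¹ * (p₀.2 : Γ)), (hcomm d).eq]
      group
    · intro d d' hd
      have := congrArg (fun q : {p // M p = M p₀} => ((q.1.1 : G) : Γ)) hd
      exact Subtype.ext (mul_left_cancel (a := (p₀.1 : Γ)) this)
    · rintro ⟨⟨g, c⟩, hp⟩
      have h1 : (g : Γ) * ((c : Γ) * t) * (g : Γ)⁻¹ =
          (p₀.1 : Γ) * ((p₀.2 : Γ) * t) * (p₀.1 : Γ)⁻¹ :=
        (hM (g, c)).symm.trans ((congrArg (fun z : G => (z : Γ) * t) hp).trans (hM p₀))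
      set d := (p₀.1 : Γ)⁻¹ * g with hd
      have h2 : d * ((c : Γ) * t) * d⁻¹ = (p₀.2 : Γ) * t := by
        calc d * ((c : Γ) * t) * d⁻¹
            = (p₀.1 : Γ)⁻¹ * ((g : Γ) * ((c : Γ) * t) * (g : Γ)⁻¹) * (p₀.1 : Γ) := by
              rw [hd]; group
          _ = _ := by rw [h1]; group
      have h3 : d * (t : Γ) * d⁻¹ = t := by
        have := congrArg (· ^ e) h2
        simp only [conj_pow, he c c.2 (hcomm c), he p₀.2 p₀.2.2 (hcomm p₀.2)] at this
        exact this
      have hdC : d ∈ C := (hmem d).2 ⟨G.mul_mem (G.inv_mem p₀.1.2) g.2,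
        (mul_inv_eq_iff_eq_mul.1 h3).symm⟩
      refine ⟨⟨d, hdC⟩, Subtype.ext (Prod.ext (Subtype.ext ?_) (Subtype.ext ?_))⟩
      · show (p₀.1 : Γ) * d = g
        rw [hd, mul_inv_cancel_left]
      · show d⁻¹ * (p₀.2 : Γ) * d = c
        have h4 : d * (c : Γ) * d⁻¹ = p₀.2 := by
          apply mul_right_cancel (b := (t : Γ))
          rw [← h2]
          conv_lhs => rw [← h3]
          group
        rw [← h4]; group
  -- all fibres have the size of `C`, so every element of the coset is reached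
  have hfib' : ∀ y : G, (Finset.univ.filter fun p => M p = y).card = Nat.card C := by
    intro y
    let I := Finset.univ.image M
    have hI : ∀ z ∈ I, (Finset.univ.filter fun p => M p = z).card = Nat.card C := by
      intro z hz
      obtain ⟨p₀, -, rfl⟩ := Finset.mem_image.1 hz
      exact hfib p₀
    have h1 := Finset.card_eq_sum_card_image M (Finset.univ : Finset (G × C))
    rw [Finset.sum_congr rfl hI, Finset.sum_const, smul_eq_mul, Finset.card_univ,
      Fintype.card_prod, ← Nat.card_eq_fintype_card, ← Nat.card_eq_fintype_card] at h1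
    have h2 : I.card = Nat.card G := (Nat.eq_of_mul_eq_mul_right Nat.card_pos h1).symm
    rw [Nat.card_eq_fintype_card] at h2
    exact hI y (Finset.eq_univ_of_card I h2 ▸ Finset.mem_univ y)
  calc (Nat.card C : ℂ) * ∑ y : G, F ((y : Γ) * t)
      = ∑ y : G, ∑ p ∈ Finset.univ.filter (fun p => M p = y), F ((M p : Γ) * t) := by
        rw [Finset.mul_sum]
        refine Finset.sum_congr rfl fun y _ => ?_
        rw [Finset.sum_congr rfl (fun p hp => by rw [(Finset.mem_filter.1 hp).2] :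
          ∀ p ∈ Finset.univ.filter (fun p => M p = y), F ((M p : Γ) * t) = F ((y : Γ) * t)),
          Finset.sum_const, hfib', nsmul_eq_mul]
    _ = ∑ p : G × C, F ((M p : Γ) * t) :=
        Finset.sum_fiberwise_of_maps_to (fun _ _ => Finset.mem_univ _) _
    _ = _ := by
        simp only [hM, hF _ _]
        rw [Fintype.sum_prod_type]
        simp [Nat.card_eq_fintype_card]

/-- The inner products on a coset and on `C`. -/
theorem classInner_coset (h : Hyp G S) (t : S) (hC : G ⊓ centralizer ({(t : Γ)} : Set Γ) = C)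
    {F K : Γ → ℂ} (hF : IsClassFunction Γ F) (hK : IsClassFunction Γ K) :
    classInner (fun y : G => F ((y : Γ) * t)) (fun y : G => K ((y : Γ) * t)) =
      classInner (fun c : C => F ((c : Γ) * t)) (fun c : C => K ((c : Γ) * t)) := by
  have := sum_coset h t hC (F := fun x => F x * conj (K x))
    (fun g x => by simp only [hF g x, hK g x])
  unfold classInner
  rw [inv_mul_eq_div, inv_mul_eq_div, div_eq_div_iff Char.card_ne_zero_complex
    Char.card_ne_zero_complex]
  linear_combination this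

end Coset

/-! ### Characters restricting irreducibly -/

theorem norm_coset (h : Hyp G S) {ψ : Γ → ℂ} (hψ : IsIrrCharacter Γ ψ)
    (hψG : IsIrrCharacter G (fun y : G => ψ y)) (t : Γ) :
    classInner (fun y : G => ψ ((y : Γ) * t)) (fun y : G => ψ ((y : Γ) * t)) = 1 := by
  haveI := h.normal
  exact congrFun (CharExt.avgN_normSq_eq_one G ψ hψ hψG) t

/-- The sum over `Γ` by cosets. -/
theorem classInner_twist (h : Hyp G S) (π : Γ →* S) (hπ : ∀ (g : G) (t : S), π ((g : Γ) * t) = t)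
    (ψ ψ' : Γ → ℂ) (l : S → ℂ) :
    classInner (fun t : S => classInner (fun y : G => ψ ((y : Γ) * t))
        (fun y : G => ψ' ((y : Γ) * t))) l =
      classInner ψ (fun x => l (π x) * ψ' x) := by
  have hcard : (Nat.card Γ : ℂ) = (Nat.card G : ℂ) * (Nat.card S : ℂ) := by
    rw [← h.index_eq, ← Nat.cast_mul, G.card_mul_index]
  unfold classInner
  rw [hcard, ← Equiv.sum_comp (Equiv.ofBijective _ h.bijective), Fintype.sum_prod_type,
    Finset.sum_comm, mul_inv, Finset.mul_sum, Finset.mul_sum]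
  refine Finset.sum_congr rfl fun t _ => ?_
  simp only [Equiv.ofBijective_apply, hπ, map_mul, Finset.mul_sum, Finset.sum_mul]
  exact Finset.sum_congr rfl fun y _ => by ring

theorem irr_twist_linear (l : IrrCharacter S) (h : Hyp G S) :
    ∃ f : S →* ℂˣ, ∀ t, (l : S → ℂ) t = (f t : ℂ) :=
  Char.irr_exists_monoidHom_of_comm h.comm l.2

theorem orth_coset (h : Hyp G S) {ψ ψ' : Γ → ℂ} (hψ : IsIrrCharacter Γ ψ)
    (hψ' : IsIrrCharacter Γ ψ') (hne : (fun y : G => ψ y) ≠ fun y : G => ψ' y) (t : S) :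
    classInner (fun y : G => ψ ((y : Γ) * t)) (fun y : G => ψ' ((y : Γ) * t)) = 0 := by
  obtain ⟨π, hπ⟩ := h.exists_proj
  refine congrFun (h.fourier (u := fun t : S => classInner (fun y : G => ψ ((y : Γ) * t))
    (fun y : G => ψ' ((y : Γ) * t))) fun l => ?_) t
  rw [classInner_twist h π hπ]
  obtain ⟨f, hf⟩ := irr_twist_linear l h
  simp only [hf]
  refine Char.classInner_irr_ne hψ (Char.isIrrCharacter_mul_monoidHom hψ' (f.comp π)) fun he => ?_
  apply hne
  funext y
  have h1 : π (y : Γ) = 1 := by simpa using hπ y 1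
  have := congrFun he (y : Γ)
  simpa [h1] using this

/-- An irreducible character meeting `ψ'` on `G` is a twist of it. -/
theorem exists_twist (h : Hyp G S) {ψ ψ' : Γ → ℂ} (hψ : IsIrrCharacter Γ ψ)
    (hψ' : IsIrrCharacter Γ ψ')
    (hne : classInner (fun y : G => ψ y) (fun y : G => ψ' y) ≠ 0) :
    ∃ (π : Γ →* S) (f : S →* ℂˣ), (∀ (g : G) (t : S), π ((g : Γ) * t) = t) ∧
      ∀ x, ψ x = (f (π x) : ℂ) * ψ' x := by
  obtain ⟨π, hπ⟩ := h.exists_proj
  by_contra hc
  push Not at hc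
  apply hne
  have hu := congrFun (h.fourier (u := fun t : S => classInner (fun y : G => ψ ((y : Γ) * t))
    (fun y : G => ψ' ((y : Γ) * t))) fun l => ?_) 1
  · simpa using hu
  rw [classInner_twist h π hπ]
  obtain ⟨f, hf⟩ := irr_twist_linear l h
  simp only [hf]
  refine Char.classInner_irr_ne hψ (Char.isIrrCharacter_mul_monoidHom hψ' (f.comp π)) fun he => ?_
  obtain ⟨x, hx⟩ := hc π f hπ
  exact hx (congrFun he x)

/-! ### The canonical extension -/

theorem invariant_all (h : Hyp G S) {χ : G → ℂ} (hcl : IsClassFunction G χ)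
    (hinv : ∀ s ∈ S, ∀ g g' : G, (g' : Γ) = s * g * s⁻¹ → χ g' = χ g) [hN : G.Normal]
    (x : Γ) (y : G) : χ (CharExt.cj G x y) = χ y := by
  obtain ⟨⟨g, t⟩, rfl⟩ := h.bijective.2 x
  rw [CharExt.cj_mul]
  exact (hcl (CharExt.cj G (t : Γ) y) g).trans (hinv t t.2 y (CharExt.cj G (t : Γ) y) rfl)

theorem exists_canonical (h : Hyp G S) {χ : G → ℂ} (hχ : IsIrrCharacter G χ)
    (hinv : ∀ s ∈ S, ∀ g g' : G, (g' : Γ) = s * g * s⁻¹ → χ g' = χ g) :
    ∃ χh : IrrCharacter Γ, (∀ g : G, (χh : Γ → ℂ) g = χ g) ∧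
      (detOrder (χh : Γ → ℂ)).Coprime (Nat.card S) := by
  haveI := h.normal
  have hall := invariant_all h (Char.irr_isClassFunction hχ) hinv
  obtain ⟨d, hd0, hd⟩ := Char.irr_one_pos hχ
  obtain ⟨d', -, hd', hd'd⟩ := Char.irr_degree_dvd_card hχ
  have hcopd : G.index.Coprime d := by
    rw [show d = d' from Nat.cast_injective (R := ℂ) (hd.symm.trans hd'), h.index_eq]
    exact h.cop.symm.coprime_dvd_right hd'd
  let lin := CharExt.detChar_isLin χ
  let lam : G →* ℂˣ := lin.toHom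
  have hord : orderOf lam ∣ Nat.card G := orderOf_dvd_of_pow_eq_one (MonoidHom.ext fun y => by
    show lam y ^ Nat.card G = 1
    rw [← map_pow, pow_card_eq_one', map_one])
  have hcl : G.index.Coprime (orderOf lam) := h.index_eq ▸ h.cop.symm.coprime_dvd_right hord
  obtain ⟨μ, ⟨hμ, hμo⟩, -⟩ := CharExt.exists_unique_coprime_extension G lam (fun x y => Units.ext
    (CharExt.detChar_inv G (Char.isCharacter_of_irr hχ) hall x y)) hcl
  obtain ⟨χh, hχh, hres, hdet⟩ := CharExt.exists_char_extension G χ hχ hall d hd hcopd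
    (fun x => (μ x : ℂ)) (CharExt.homVal_isLin μ) (fun y => by rw [hμ y]; rfl)
  refine ⟨⟨χh, hχh⟩, hres, ?_⟩
  show Nat.Coprime (orderOf (Cfsg.detChar χh)) _
  rw [hdet, show (fun x => (μ x : ℂ)) = CharExt.homVal μ from rfl,
    orderOf_injective CharExt.homVal CharExt.homVal_injective, hμo]
  exact h.cop.coprime_dvd_left hord

theorem canonical_unique (h : Hyp G S) {χ : G → ℂ} (hχ : IsIrrCharacter G χ) {ψ ψ' : Γ → ℂ}
    (hψ : IsCharacter Γ ψ) (hψ' : IsCharacter Γ ψ') (r : ∀ g : G, ψ g = χ g)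
    (r' : ∀ g : G, ψ' g = χ g) (hd : (detOrder ψ).Coprime (Nat.card S))
    (hd' : (detOrder ψ').Coprime (Nat.card S)) : ψ = ψ' := by
  haveI := h.normal
  obtain ⟨d, hd0, hd1⟩ := Char.irr_one_pos hχ
  obtain ⟨d', -, hd2, hd'd⟩ := Char.irr_degree_dvd_card hχ
  refine CharExt.char_eq_of_restrict_eq_of_det_eq G χ hχ d hd1 ?_ ψ ψ' hψ hψ' r r' ?_
  · rw [show d = d' from Nat.cast_injective (R := ℂ) (hd1.symm.trans hd2), h.index_eq]
    exact h.cop.symm.coprime_dvd_right hd'd
  · let l := CharExt.detChar_isLin ψ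
    let l' := CharExt.detChar_isLin ψ'
    rw [← l.homVal_toHom, ← l'.homVal_toHom]
    refine congrArg _ (CharExt.hom_eq_of_coprime G l'.toHom l.toHom (fun y => Units.ext ?_) ?_ ?_)
    · rw [l'.toHom_apply, l.toHom_apply, CharExt.detChar_restrict G hψ' r',
        CharExt.detChar_restrict G hψ r]
    · rw [h.index_eq, ← l'.orderOf_eq]; exact hd'.symm
    · rw [h.index_eq, ← l.orderOf_eq]; exact hd.symm

/-- The canonical extension is unchanged by powers prime to `|S|` acting on the `S`-part. -/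
theorem value_pow (h : Hyp G S) {χ : G → ℂ} (hχ : IsIrrCharacter G χ) {ψ : Γ → ℂ}
    (hψ : IsCharacter Γ ψ) (r : ∀ g : G, ψ g = χ g) (hd : (detOrder ψ).Coprime (Nat.card S))
    {k : ℕ} (hk : k.Coprime (Nat.card S)) (c : G) (t : S) (hct : Commute (c : Γ) t) :
    ψ ((c : Γ) * (t ^ k : S)) = ψ ((c : Γ) * t) := by
  haveI : NeZero (Nat.card Γ) := ⟨Nat.card_pos.ne'⟩
  have hab : Nat.card S * Nat.card G ∣ Nat.card Γ := by
    rw [← h.index_eq, mul_comm, G.card_mul_index]
  obtain ⟨j, hj, hja, hjb⟩ := OddChar.exists_coprime_exponent hab h.cop.symm hk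
  have hfix : ∀ y : G, (y : Γ) ^ j = y := fun y => by
    have := pow_eq_pow_iff_modEq.2 (hjb.of_dvd (orderOf_dvd_natCard y))
    rw [pow_one] at this
    exact congrArg Subtype.val this
  have hψ' := OddChar.isCharacter_twist hψ hj
  have hdet : Cfsg.detChar (fun x => ψ (x ^ j)) = Cfsg.detChar ψ ^ j := by
    funext x
    obtain ⟨m, σ, rfl⟩ := hψ
    let Z := Subgroup.zpowers x
    haveI : IsMulCommutative Z := inferInstance
    let p : Z →* Γ := MonoidHom.mk' (fun z => (z : Γ) ^ j) fun a b =>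
      (show Commute (a : Γ) (b : Γ) from congrArg Subtype.val (IsMulCommutative.is_comm.comm a b)).mul_pow j
    rw [Pi.pow_apply, CharExt.detChar_restrict (N := Z) hψ' (ϑ := fun z : Z => σ.character (p z))
      (fun z => rfl) ⟨x, Subgroup.mem_zpowers x⟩,
      CharExt.detChar_eq σ rfl]
    refine (CharExt.detChar_eq (σ.comp p : Representation ℂ Z (Fin m → ℂ)) rfl _).trans ?_
    show LinearMap.det (σ (x ^ j)) = _
    rw [map_pow, map_pow]
  have e := canonical_unique h hχ hψ' hψ (fun y => by rw [hfix, r]) r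
    (by
      show Nat.Coprime (orderOf _) _
      rw [hdet]
      exact hd.coprime_dvd_left (orderOf_pow_dvd j)) hd
  rw [← congrFun e ((c : Γ) * t), hct.mul_pow, hfix,
    show ((t ^ k : S) : Γ) = (t : Γ) ^ j from ?_]
  rw [← Subgroup.coe_pow]
  exact congrArg Subtype.val (pow_eq_pow_iff_modEq.2 (hja.of_dvd (orderOf_dvd_natCard t))).symm

/-! ### The coefficient functions -/

variable {C : Subgroup Γ} [Fintype C]

/-- The coefficient of `β` in `c ↦ ψ (c t)`. -/
noncomputable def coef (C : Subgroup Γ) [Fintype C] (ψ : Γ → ℂ) (β : C → ℂ) : S → ℂ :=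
  fun t => classInner (fun c : C => ψ ((c : Γ) * t)) β

theorem slice_isClass (hC : C ≤ centralizer (S : Set Γ)) {ψ : Γ → ℂ}
    (hψ : IsClassFunction Γ ψ) (t : S) : IsClassFunction C (fun c : C => ψ ((c : Γ) * t)) := by
  intro c d
  show ψ ((d : Γ) * c * (d : Γ)⁻¹ * t) = _
  refine Eq.trans (congrArg ψ ?_) (hψ ((c : Γ) * t) (d : Γ))
  rw [mul_assoc ((d : Γ) * c), ← mul_assoc (d : Γ) (c : Γ) (t : Γ),
    mul_assoc ((d : Γ) * c) (t : Γ)]
  congr 1
  exact ((show Commute (t : Γ) (d : Γ) from mem_centralizer_iff.1 (hC d.2) t t.2).inv_right).eq.symm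

/-- Fourier coefficients of `coef` are natural numbers. -/
theorem exists_mult (hC : C ≤ centralizer (S : Set Γ)) {ψ : Γ → ℂ} (hψ : IsCharacter Γ ψ)
    (β : IrrCharacter C) :
    ∃ m : IrrCharacter S → ℕ, ∀ l : IrrCharacter S,
      classInner (coef C ψ (β : C → ℂ)) (l : S → ℂ) = m l := by
  let ι : C × S →* Γ := MonoidHom.mk' (fun p => (p.1 : Γ) * p.2) fun p q => by
    show ((p.1 : Γ) * q.1) * ((p.2 : Γ) * q.2) = (p.1 : Γ) * p.2 * ((q.1 : Γ) * q.2)
    rw [mul_assoc (p.1 : Γ) (q.1 : Γ), ← mul_assoc (q.1 : Γ),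
      ← mem_centralizer_iff.1 (hC q.1.2) _ p.2.2]
    group
  choose m hm using fun l : IrrCharacter S => Char.isCharacter_classInner_nat
    (Char.isCharacter_comp_any hψ ι) ⟨_, Char.isIrrCharacter_prodMul β.2 l.2⟩
  refine ⟨m, fun l => (Eq.trans ?_ (hm l))⟩
  simp only [coef, classInner, Nat.card_prod, Nat.cast_mul, mul_inv, Fintype.sum_prod_type_right,
    Finset.mul_sum, Finset.sum_mul, map_mul]
  exact Finset.sum_congr rfl fun t _ => Finset.sum_congr rfl fun c _ => by
    show _ = _ * (ψ ((c : Γ) * t) * _)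
    ring

theorem coef_eq_sum (h : Hyp G S) (hC : C ≤ centralizer (S : Set Γ)) {ψ : Γ → ℂ}
    (hψ : IsCharacter Γ ψ) (β : IrrCharacter C) :
    ∃ m : IrrCharacter S → ℕ, ∀ t, coef C ψ (β : C → ℂ) t = ∑ l, (m l : ℂ) * (l : S → ℂ) t := by
  obtain ⟨m, hm⟩ := exists_mult hC hψ β
  refine ⟨m, fun t => ?_⟩
  conv_lhs => rw [Char.eq_sum_classInner_smul (f := coef (S := S) C ψ (β : C → ℂ))
    (fun g x => by rw [h.comm x g, mul_inv_cancel_right])]
  simp [hm]

theorem irr_one_eq_one (h : Hyp G S) (l : IrrCharacter S) : (l : S → ℂ) 1 = 1 :=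
  Char.irr_degree_one_of_comm h.comm l.2

/-- The sum of a linear character over the generators is an integer. -/
theorem gen_sum_int (f : S →* ℂˣ) :
    ∀ H : Subgroup S, ∃ z : ℤ,
      ∑ x ∈ Finset.univ.filter (fun x => zpowers x = H), (f x : ℂ) = z := by
  intro H
  induction H using WellFoundedLT.induction with
  | _ H ih =>
    have hall : ∑ x ∈ Finset.univ.filter (fun x : S => x ∈ H), (f x : ℂ) =
        ∑ K ∈ Finset.univ.filter (fun K : Subgroup S => K ≤ H),
          ∑ x ∈ Finset.univ.filter (fun x => zpowers x = K), (f x : ℂ) := by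
      rw [← Finset.sum_fiberwise_of_maps_to (g := fun x : S => zpowers x)
        (t := Finset.univ.filter (fun K : Subgroup S => K ≤ H))
        (fun x hx => Finset.mem_filter.2 ⟨Finset.mem_univ _,
          zpowers_le.2 (Finset.mem_filter.1 hx).2⟩)]
      refine Finset.sum_congr rfl fun K hK => Finset.sum_congr ?_ fun _ _ => rfl
      ext x
      simp only [Finset.mem_filter, Finset.mem_univ, true_and] at hK ⊢
      exact ⟨fun hx => hx.2, fun hx => ⟨hK (hx ▸ mem_zpowers x), hx⟩⟩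
    have hint : ∃ z : ℤ, ∑ x ∈ Finset.univ.filter (fun x : S => x ∈ H), (f x : ℂ) = z := by
      rw [Finset.sum_subtype (p := fun x => x ∈ H) _ (by simp) (fun x => (f x : ℂ))]
      by_cases hf : f.comp H.subtype = 1
      · refine ⟨Fintype.card H, ?_⟩
        rw [Fintype.sum_congr (fun x : H => (f (x : S) : ℂ)) (fun _ => 1) fun x => by
          rw [show f (x : S) = 1 from DFunLike.congr_fun hf x, Units.val_one]]
        simp
      · exact ⟨0, by rw [Int.cast_zero]; exact Char.monoidHom_sum_eq_zero hf⟩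
    obtain ⟨z, hz⟩ := hint
    rw [← Finset.add_sum_erase _ _ (show H ∈ Finset.univ.filter (fun K => K ≤ H) by simp)] at hall
    choose w hw using fun K : Subgroup S => fun hK : K < H => ih K hK
    let W : Subgroup S → ℤ := fun K => if hK : K < H then w K hK else 0
    rw [Finset.sum_congr rfl (fun K hK => show _ = ((W K : ℤ) : ℂ) by
      simp only [Finset.mem_erase, Finset.mem_filter, Finset.mem_univ, true_and] at hK
      simp only [W, dif_pos (lt_of_le_of_ne hK.2 hK.1)]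
      exact hw K _)] at hall
    refine ⟨z - ∑ K ∈ (Finset.univ.filter (fun K : Subgroup S => K ≤ H)).erase H, W K, ?_⟩
    push_cast
    rw [← hz, hall, add_sub_cancel_right]

theorem exists_pow_of_gen {t x : S} (ht : zpowers t = ⊤) (hx : zpowers x = ⊤) :
    ∃ k : ℕ, k.Coprime (Nat.card S) ∧ x = t ^ k := by
  obtain ⟨k, hk⟩ := (mem_powers_iff_mem_zpowers (x := t) (y := x)).2 (ht ▸ mem_top x)
  refine ⟨k, ?_, hk.symm⟩
  have hot : orderOf t = Nat.card S := by rw [← Nat.card_zpowers, ht, Subgroup.card_top]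
  have hox : orderOf (t ^ k) = Nat.card S := by
    rw [show t ^ k = x from hk, ← Nat.card_zpowers, hx, Subgroup.card_top]
  rw [orderOf_pow, hot] at hox
  rw [Nat.coprime_comm]
  exact (Nat.div_eq_self.1 hox).resolve_left Nat.card_pos.ne'

/-- At a generator, the coefficients are rational integers. -/
theorem coef_int (h : Hyp G S) (hCG : C ≤ G) (hC : C ≤ centralizer (S : Set Γ)) {χ : G → ℂ}
    (hχ : IsIrrCharacter G χ) {ψ : Γ → ℂ} (hψ : IsCharacter Γ ψ) (r : ∀ g : G, ψ g = χ g)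
    (hd : (detOrder ψ).Coprime (Nat.card S)) (β : IrrCharacter C) {t : S} (ht : zpowers t = ⊤) :
    ∃ a : ℤ, coef C ψ (β : C → ℂ) t = a := by
  obtain ⟨m, hm⟩ := coef_eq_sum h hC hψ β
  set P := Finset.univ.filter (fun x : S => zpowers x = ⊤) with hP
  have hconst : ∀ x ∈ P, coef C ψ (β : C → ℂ) x = coef C ψ (β : C → ℂ) t := by
    intro x hx
    obtain ⟨k, hk, rfl⟩ := exists_pow_of_gen ht (Finset.mem_filter.1 hx).2
    refine congrArg (fun F => classInner F (β : C → ℂ)) (funext fun c => ?_)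
    exact value_pow h hχ hψ r hd hk ⟨c, hCG c.2⟩ t
      (mem_centralizer_iff.1 (hC c.2) t t.2).symm
  have hR : ∀ l : IrrCharacter S, ∃ z : ℤ, ∑ x ∈ P, (l : S → ℂ) x = z := by
    intro l
    obtain ⟨f, hf⟩ := irr_twist_linear l h
    simp only [hf]
    exact gen_sum_int f ⊤
  choose z hz using hR
  have hsum : (P.card : ℂ) * coef C ψ (β : C → ℂ) t = ((∑ l, (m l : ℤ) * z l : ℤ) : ℂ) := by
    rw [← nsmul_eq_mul, ← Finset.sum_const, ← Finset.sum_congr rfl hconst]
    simp only [hm]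
    rw [Finset.sum_comm]
    push_cast
    exact Finset.sum_congr rfl fun l _ => by rw [← hz, Finset.mul_sum]
  have hP0 : (P.card : ℂ) ≠ 0 :=
    Nat.cast_ne_zero.2 (Finset.card_ne_zero_of_mem (Finset.mem_filter.2 ⟨Finset.mem_univ t, ht⟩))
  have hq : coef C ψ (β : C → ℂ) t = ((((∑ l, (m l : ℤ) * z l : ℤ) : ℚ) / P.card : ℚ) : ℂ) := by
    push_cast at hsum ⊢
    rw [eq_div_iff hP0, mul_comm, hsum]
  obtain ⟨a, ha⟩ := Char.exists_int_of_isIntegral_rat
    (q := ((∑ l, (m l : ℤ) * z l : ℤ) : ℚ) / P.card) (by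
      rw [← hq, hm]
      exact IsIntegral.sum _ fun l _ => (Char.isIntegral_of_nat _).mul
        (Char.isCharacter_isIntegral (Char.isCharacter_of_irr l.2) t))
  exact ⟨a, by rw [hq, ha]; norm_num⟩

theorem sum_sq_coef (h : Hyp G S) (hC : C ≤ centralizer (S : Set Γ)) (t : S)
    (hCt : G ⊓ centralizer ({(t : Γ)} : Set Γ) = C) {ψ : Γ → ℂ} (hψ : IsIrrCharacter Γ ψ)
    (hψG : IsIrrCharacter G (fun y : G => ψ y)) :
    ∑ β : IrrCharacter C, coef C ψ (β : C → ℂ) t * conj (coef C ψ (β : C → ℂ) t) = 1 := by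
  rw [← norm_coset h hψ hψG (t : Γ),
    classInner_coset h t hCt (Char.irr_isClassFunction hψ) (Char.irr_isClassFunction hψ)]
  exact (Char.classInner_eq_sum_mul_conj (slice_isClass hC (Char.irr_isClassFunction hψ) t)).symm

theorem slice_eq_sum (hC : C ≤ centralizer (S : Set Γ)) {ψ : Γ → ℂ}
    (hψ : IsClassFunction Γ ψ) (t : S) (c : C) :
    ψ ((c : Γ) * t) = ∑ β : IrrCharacter C, coef C ψ (β : C → ℂ) t * (β : C → ℂ) c := by
  have := congrFun (Char.eq_sum_classInner_smul (slice_isClass hC hψ t)) c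
  rw [this]
  simp [coef]

/-- The main theorem at a generator. -/
theorem exists_signed (h : Hyp G S) (hCG : C ≤ G) (hC : C ≤ centralizer (S : Set Γ)) {χ : G → ℂ}
    (hχ : IsIrrCharacter G χ) {ψ : Γ → ℂ} (hψ : IsIrrCharacter Γ ψ) (r : ∀ g : G, ψ g = χ g)
    (hd : (detOrder ψ).Coprime (Nat.card S)) {t : S} (ht : zpowers t = ⊤)
    (hCt : G ⊓ centralizer ({(t : Γ)} : Set Γ) = C) :
    ∃ (β : IrrCharacter C) (ε : ℤ), (ε = 1 ∨ ε = -1) ∧
      ∀ c : C, ψ ((c : Γ) * t) = (ε : ℂ) * (β : C → ℂ) c := by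
  have hgen : IsGeneralizedCharacter C (fun c : C => ψ ((c : Γ) * t)) :=
    Char.isGeneralizedCharacter_iff_classInner_int.2
      ⟨slice_isClass hC (Char.irr_isClassFunction hψ) t, fun β =>
        coef_int h hCG hC hχ (Char.isCharacter_of_irr hψ) r hd β ht⟩
  have hψG : IsIrrCharacter G (fun y : G => ψ y) := (funext r : (fun y : G => ψ y) = χ) ▸ hχ
  rcases Char.generalized_norm_one hgen (by
    rw [← classInner_coset h t hCt (Char.irr_isClassFunction hψ) (Char.irr_isClassFunction hψ)]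
    exact norm_coset h hψ hψG (t : Γ)) with hi | hi
  · exact ⟨⟨_, hi⟩, 1, Or.inl rfl, fun c => by simp⟩
  · exact ⟨⟨_, hi⟩, -1, Or.inr rfl, fun c => by simp⟩

theorem eq_of_signed {β β' : IrrCharacter C} {ε ε' : ℤ} (hε : ε = 1 ∨ ε = -1)
    (hε' : ε' = 1 ∨ ε' = -1) (h : ∀ c : C, (ε : ℂ) * (β : C → ℂ) c = (ε' : ℂ) * (β' : C → ℂ) c) :
    β = β' ∧ ε = ε' := by
  obtain ⟨a, ha, ha'⟩ := Char.irr_one_pos β.2
  obtain ⟨b, hb, hb'⟩ := Char.irr_one_pos β'.2
  have h1 := h 1
  rw [ha', hb'] at h1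
  have h2 : ε * (a : ℤ) = ε' * (b : ℤ) := by exact_mod_cast h1
  have hee : ε = ε' := by rcases hε with rfl | rfl <;> rcases hε' with rfl | rfl <;> omega
  subst hee
  refine ⟨Subtype.ext (funext fun c => mul_left_cancel₀ ?_ (h c)), rfl⟩
  rcases hε with rfl | rfl <;> norm_num

theorem coef_of_signed {ψ : Γ → ℂ} {t : S} {β : IrrCharacter C} {ε : ℤ}
    (h : ∀ c : C, ψ ((c : Γ) * t) = (ε : ℂ) * (β : C → ℂ) c) :
    coef C ψ (β : C → ℂ) t = (ε : ℂ) := by
  show classInner _ _ = _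
  rw [show (fun c : C => ψ ((c : Γ) * t)) = (ε : ℂ) • (β : C → ℂ) from funext h,
    CharInd.classInner_smul_left, Char.classInner_irr_self β.2, mul_one]

/-- The correspondent is a constituent of the restriction. -/
theorem constituent (h : Hyp G S) (hC : C ≤ centralizer (S : Set Γ)) {ψ : Γ → ℂ}
    (hψ : IsCharacter Γ ψ) (β : IrrCharacter C) (t : S) (hne : coef C ψ (β : C → ℂ) t ≠ 0) :
    classInner (fun c : C => ψ c) (β : C → ℂ) ≠ 0 := by
  obtain ⟨m, hm⟩ := coef_eq_sum h hC hψ β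
  have h1 : classInner (fun c : C => ψ c) (β : C → ℂ) = ((∑ l, m l : ℕ) : ℂ) := by
    have := hm 1
    simp only [coef, OneMemClass.coe_one, mul_one, irr_one_eq_one h] at this
    rw [this]; push_cast; rfl
  rw [h1, Nat.cast_ne_zero]
  intro h0
  apply hne
  rw [hm]
  exact Finset.sum_eq_zero fun l _ => by
    rw [Finset.sum_eq_zero_iff.1 h0 l (Finset.mem_univ l)]; simp

/-- Distinct invariant characters have distinct correspondents. -/
theorem signed_injective (h : Hyp G S) {t : S} (hCt : G ⊓ centralizer ({(t : Γ)} : Set Γ) = C)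
    {ψ ψ' : Γ → ℂ} (hψ : IsIrrCharacter Γ ψ) (hψ' : IsIrrCharacter Γ ψ') {β : IrrCharacter C}
    {ε ε' : ℤ} (hε : ε = 1 ∨ ε = -1) (hε' : ε' = 1 ∨ ε' = -1)
    (hb : ∀ c : C, ψ ((c : Γ) * t) = (ε : ℂ) * (β : C → ℂ) c)
    (hb' : ∀ c : C, ψ' ((c : Γ) * t) = (ε' : ℂ) * (β : C → ℂ) c) :
    (fun y : G => ψ y) = fun y : G => ψ' y := by
  by_contra hne
  have := orth_coset h hψ hψ' hne t
  rw [classInner_coset h t hCt (Char.irr_isClassFunction hψ) (Char.irr_isClassFunction hψ'),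
    show (fun c : C => ψ ((c : Γ) * t)) = (ε : ℂ) • (β : C → ℂ) from funext hb,
    show (fun c : C => ψ' ((c : Γ) * t)) = (ε' : ℂ) • (β : C → ℂ) from funext hb',
    CharInd.classInner_smul_left, CharInd.classInner_smul_right,
    Char.classInner_irr_self β.2] at this
  rcases hε with rfl | rfl <;> rcases hε' with rfl | rfl <;> simp at this

/-- An irreducible character not restricting to an invariant one vanishes on a generating coset. -/
theorem slice_eq_zero_or (h : Hyp G S) {ψ : Γ → ℂ} (hψ : IsIrrCharacter Γ ψ) {t : S}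
    (ht : zpowers t = ⊤) :
    (∀ y : G, ψ ((y : Γ) * t) = 0) ∨
      ∃ θ : IrrCharacter G, classInner (fun y : G => ψ y) (θ : G → ℂ) ≠ 0 ∧
        ∀ s ∈ S, ∀ g g' : G, (g' : Γ) = s * g * s⁻¹ → (θ : G → ℂ) g' = (θ : G → ℂ) g := by
  haveI := h.normal
  obtain ⟨θ, n₀, hn₀, hθ⟩ := Char.exists_irr_constituent
    (CharInd.isCharacter_res G (Char.isCharacter_of_irr hψ)) fun h0 =>
      Char.irr_one_ne_zero hψ (congrFun h0 1)
  have hθ0 : classInner (fun y : G => ψ y) (θ : G → ℂ) ≠ 0 := by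
    rw [hθ]; exact Nat.cast_ne_zero.2 hn₀.ne'
  set T := CharInd.conjStab G (θ : G → ℂ) with hT
  by_cases htT : (t : Γ) ∈ T
  · refine Or.inr ⟨θ, hθ0, fun s hs g g' hg => ?_⟩
    have hS : S ≤ T := fun x hx => by
      obtain ⟨k, hk⟩ := Subgroup.mem_zpowers_iff.1 (show (⟨x, hx⟩ : S) ∈ zpowers t from
        ht ▸ mem_top _)
      have h2 := congrArg Subtype.val hk
      rw [Subgroup.coe_zpow] at h2
      show (⟨x, hx⟩ : S).val ∈ T
      rw [← h2]
      exact T.zpow_mem htT k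
    have h3 := congrFun ((CharInd.mem_conjStab G).1 (hS hs)) g
    rw [CharInd.conjChar_apply] at h3
    rw [← h3]
    exact congrArg _ (Subtype.ext hg)
  · left
    intro y
    obtain ⟨η, hη, hind⟩ := CharInd.exists_induced_from_stab G hψ θ.2 hθ0
    have hGT : G ≤ T := CharInd.le_conjStab G (Char.irr_isClassFunction θ.2)
    rw [← hind]
    refine CharInd.indFun_eq_zero_of_forall T η fun x hx => htT ?_
    obtain ⟨π, hπ⟩ := h.exists_proj
    have hπx : π (x⁻¹ * ((y : Γ) * t) * x) = t := by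
      rw [map_mul, map_mul, map_inv, hπ, h.comm ((π x)⁻¹) t, inv_mul_cancel_right]
    obtain ⟨⟨g, t'⟩, e⟩ := h.bijective.2 (x⁻¹ * ((y : Γ) * t) * x)
    dsimp only at e
    rw [← e, hπ] at hπx
    rw [← e, hπx] at hx
    have := T.mul_mem (T.inv_mem (hGT g.2)) hx
    rwa [inv_mul_cancel_left] at this

/-- Every irreducible character of `C` is a correspondent. -/
theorem signed_surjective (h : Hyp G S) (hCG : C ≤ G) (hC : C ≤ centralizer (S : Set Γ)) {t : S}
    (ht : zpowers t = ⊤) (hCt : G ⊓ centralizer ({(t : Γ)} : Set Γ) = C) (β : IrrCharacter C) :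
    ∃ (χ : IrrCharacter G) (χh : IrrCharacter Γ) (ε : ℤ),
      (∀ s ∈ S, ∀ g g' : G, (g' : Γ) = s * g * s⁻¹ → (χ : G → ℂ) g' = (χ : G → ℂ) g) ∧
      (∀ g : G, (χh : Γ → ℂ) g = (χ : G → ℂ) g) ∧
      (detOrder (χh : Γ → ℂ)).Coprime (Nat.card S) ∧ (ε = 1 ∨ ε = -1) ∧
      ∀ c : C, (χh : Γ → ℂ) ((c : Γ) * t) = (ε : ℂ) * (β : C → ℂ) c := by
  by_contra hc
  -- every slice is orthogonal to `β`
  have horth : ∀ ψ : IrrCharacter Γ, coef C (ψ : Γ → ℂ) (β : C → ℂ) t = 0 := by
    intro ψ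
    rcases slice_eq_zero_or h ψ.2 ht with h0 | ⟨θ, hθ, hinv⟩
    · show classInner _ _ = 0
      rw [show (fun c : C => (ψ : Γ → ℂ) ((c : Γ) * t)) = 0 from
        funext fun c => h0 ⟨c, hCG c.2⟩, Char.classInner_zero_left]
    · obtain ⟨θh, hres, hdet⟩ := exists_canonical h θ.2 hinv
      obtain ⟨γ, ε, hε, hv⟩ := exists_signed h hCG hC θ.2 θh.2 hres hdet ht hCt
      obtain ⟨π, f, hπ, hψ⟩ := exists_twist h ψ.2 θh.2 (by
        rwa [show (fun y : G => (θh : Γ → ℂ) y) = (θ : G → ℂ) from funext hres])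
      show classInner _ _ = 0
      rw [show (fun c : C => (ψ : Γ → ℂ) ((c : Γ) * t)) =
          ((f t : ℂ) * (ε : ℂ)) • (γ : C → ℂ) from funext fun c => by
        rw [hψ, hπ ⟨c, hCG c.2⟩ t, hv, Pi.smul_apply, smul_eq_mul, mul_assoc],
        CharInd.classInner_smul_left, Char.classInner_irr_ne γ.2 β.2 fun he => ?_, mul_zero]
      exact hc ⟨θ, θh, ε, hinv, hres, hdet, hε, fun c => by rw [hv, he]⟩
  -- column orthogonality
  obtain ⟨c₀, hc₀⟩ : ∃ c₀ : C, (β : C → ℂ) c₀ ≠ 0 := ⟨1, Char.irr_one_ne_zero β.2⟩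
  have key : ∑ c : C, (β : C → ℂ) c *
      ∑ ψ : IrrCharacter Γ, (ψ : Γ → ℂ) ((c₀ : Γ) * t) * conj ((ψ : Γ → ℂ) ((c : Γ) * t)) = 0 := by
    simp only [Finset.mul_sum]
    rw [Finset.sum_comm]
    refine Finset.sum_eq_zero fun ψ _ => ?_
    have h1 := congrArg conj (horth ψ)
    rw [map_zero] at h1
    show ∑ c : C, _ = 0
    rw [coef, Char.classInner_conj, classInner, mul_eq_zero, inv_eq_zero] at h1
    have h2 := h1.resolve_left Char.card_ne_zero_complex
    calc _ = (ψ : Γ → ℂ) ((c₀ : Γ) * t) *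
        ∑ c : C, (β : C → ℂ) c * conj ((ψ : Γ → ℂ) ((c : Γ) * t)) := by
          rw [Finset.mul_sum]; exact Finset.sum_congr rfl fun c _ => by ring
      _ = 0 := by rw [h2, mul_zero]
  have hmem : ∀ x, x ∈ C ↔ x ∈ G ∧ (t : Γ) * x = x * t := fun x => by
    rw [← hCt, mem_inf, mem_centralizer_singleton_iff, eq_comm]
  obtain ⟨e, he⟩ := exists_pow_fix h hCG t
  have hiff : ∀ c : C, IsConj ((c₀ : Γ) * t) ((c : Γ) * t) → (β : C → ℂ) c = (β : C → ℂ) c₀ := by
    intro c hconj
    obtain ⟨x, hx⟩ := isConj_iff.1 hconj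
    have hxt : x * (t : Γ) * x⁻¹ = t := by
      have := congrArg (· ^ e) hx
      simp only [conj_pow, he c₀ c₀.2 ((hmem _).1 c₀.2).2.symm,
        he c c.2 ((hmem _).1 c.2).2.symm] at this
      exact this
    have hxc : x * (c₀ : Γ) * x⁻¹ = c := by
      apply mul_right_cancel (b := (t : Γ))
      rw [← hx]
      conv_lhs => rw [← hxt]
      group
    obtain ⟨⟨g, t'⟩, rfl⟩ := h.bijective.2 x
    dsimp only at hxt hxc
    have htt : (t' : Γ) * t * (t' : Γ)⁻¹ = t := by
      rw [← Subgroup.coe_mul, h.comm t' t, Subgroup.coe_mul, mul_inv_cancel_right]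
    have hgC : (g : Γ) ∈ C := (hmem _).2 ⟨g.2, by
      have h2 : (g : Γ) * ((t' : Γ) * t * (t' : Γ)⁻¹) * (g : Γ)⁻¹ = t := by
        calc (g : Γ) * ((t' : Γ) * t * (t' : Γ)⁻¹) * (g : Γ)⁻¹
            = (g : Γ) * (t' : Γ) * t * ((g : Γ) * (t' : Γ))⁻¹ := by group
          _ = t := hxt
      rw [htt] at h2
      exact (mul_inv_eq_iff_eq_mul.1 h2).symm⟩
    rw [show c = ⟨g, hgC⟩ * c₀ * ⟨g, hgC⟩⁻¹ from Subtype.ext ?_]
    · exact Char.irr_isClassFunction β.2 c₀ ⟨g, hgC⟩
    · rw [← hxc]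
      show _ = (g : Γ) * c₀ * (g : Γ)⁻¹
      rw [mul_assoc (g : Γ) (t' : Γ), show (t' : Γ) * c₀ = c₀ * t' from
        mem_centralizer_iff.1 (hC c₀.2) _ t'.2]
      group
  simp only [Char.sum_irr_mul_conj, mul_ite, mul_zero] at key
  rw [← Finset.sum_filter, Finset.sum_congr rfl (fun c hc => by
    rw [hiff c (Finset.mem_filter.1 hc).2]), Finset.sum_const, nsmul_eq_mul] at key
  rcases mul_eq_zero.1 key with h1 | h1
  · exact Finset.card_ne_zero_of_mem (Finset.mem_filter.2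
      ⟨Finset.mem_univ c₀, IsConj.refl ((c₀ : Γ) * t)⟩) (Nat.cast_eq_zero.1 h1)
  · refine (mul_ne_zero hc₀ ?_) h1
    exact Nat.cast_ne_zero.2 Nat.card_pos.ne'

/-- Variance lemma. -/
theorem variance {ι : Type*} [Fintype ι] (m : ι → ℤ)
    (hD : (Fintype.card ι : ℤ) * ∑ i, m i ^ 2 - (∑ i, m i) ^ 2 ≤ (Fintype.card ι : ℤ) - 1) :
    (∀ i j, m i = m j) ∨ ∃ (i₀ : ι) (a ε : ℤ), (ε = 1 ∨ ε = -1) ∧
      (∀ i, m i = a + if i = i₀ then ε else 0) ∧
      (Fintype.card ι : ℤ) * ∑ i, m i ^ 2 - (∑ i, m i) ^ 2 = (Fintype.card ι : ℤ) - 1 := by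
  by_cases hcon : ∀ i j, m i = m j
  · exact Or.inl hcon
  right
  push Not at hcon
  obtain ⟨i₁, j₁, hij⟩ := hcon
  obtain ⟨iz, -, hmin⟩ := Finset.univ.exists_min_image m ⟨i₁, Finset.mem_univ _⟩
  set a := m iz with ha
  let v : ι → ℤ := fun i => m i - a
  set n : ℤ := (Fintype.card ι : ℤ) with hn
  have hv0 : ∀ i, 0 ≤ v i := fun i => sub_nonneg.2 (hmin i (Finset.mem_univ i))
  have hD' : n * ∑ i, m i ^ 2 - (∑ i, m i) ^ 2 = n * ∑ i, v i ^ 2 - (∑ i, v i) ^ 2 := by
    simp only [v, sub_sq, Finset.sum_sub_distrib, Finset.sum_add_distrib, ← Finset.mul_sum,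
      ← Finset.sum_mul, Finset.sum_const, Finset.card_univ, nsmul_eq_mul]
    ring
  set K := Finset.univ.filter (fun i => v i ≠ 0) with hK
  have hU : ∑ i, v i = ∑ i ∈ K, v i := (Finset.sum_filter_ne_zero _).symm
  have hQ : ∑ i, v i ^ 2 = ∑ i ∈ K, v i ^ 2 :=
    (Finset.sum_subset (Finset.subset_univ _) fun i _ hi => by
      simp only [hK, Finset.mem_filter, Finset.mem_univ, true_and, not_not] at hi
      simp [hi]).symm
  have hCS : (∑ i ∈ K, v i) ^ 2 ≤ (K.card : ℤ) * ∑ i ∈ K, v i ^ 2 := sq_sum_le_card_mul_sum_sq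
  have hge : ∀ i ∈ K, 1 ≤ v i := fun i hi => by
    have := hv0 i
    have := (Finset.mem_filter.1 hi).2
    omega
  have hQk : (K.card : ℤ) ≤ ∑ i ∈ K, v i ^ 2 := by
    rw [Finset.card_eq_sum_ones, Nat.cast_sum]
    exact Finset.sum_le_sum fun i hi => by push_cast; nlinarith [hge i hi]
  have hk1 : 1 ≤ (K.card : ℤ) := by
    rcases eq_or_ne (v i₁) 0 with h1 | h1
    · have : 0 < K.card :=
        Finset.card_pos.2 ⟨j₁, Finset.mem_filter.2 ⟨Finset.mem_univ _, fun h2 => hij (by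
          simp only [v, sub_eq_zero] at h1 h2
          rw [h1, h2])⟩⟩
      exact_mod_cast this
    · exact_mod_cast Finset.card_pos.2 ⟨i₁, Finset.mem_filter.2 ⟨Finset.mem_univ _, h1⟩⟩
  have hkn : (K.card : ℤ) < n := by
    rw [hn]
    exact_mod_cast Finset.card_lt_card ⟨Finset.subset_univ K, fun hsub => by
      have := (Finset.mem_filter.1 (hsub (Finset.mem_univ iz))).2
      simp [v, ha] at this⟩
  rw [hD', hU, hQ] at hD ⊢
  set Q := ∑ i ∈ K, v i ^ 2
  set U := ∑ i ∈ K, v i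
  set k : ℤ := (K.card : ℤ) with hk
  have h1 : (k - 1) * (n - 1 - k) ≤ 0 := by nlinarith
  have h2 : k = 1 ∨ k = n - 1 := by
    by_contra hc
    push Not at hc
    have : 0 < (k - 1) * (n - 1 - k) := mul_pos (by omega) (by omega)
    linarith
  have hQeq : Q = k := by rcases h2 with h2 | h2 <;> nlinarith
  have hall : ∀ i ∈ K, v i = 1 := by
    intro i hi
    by_contra hne
    have h3 : 2 ≤ v i := by have := hge i hi; omega
    have : (K.card : ℤ) < Q := by
      rw [Finset.card_eq_sum_ones, Nat.cast_sum]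
      refine Finset.sum_lt_sum (fun j hj => by push_cast; nlinarith [hge j hj]) ⟨i, hi, ?_⟩
      push_cast; nlinarith
    omega
  have hUeq : U = k := by
    show ∑ i ∈ K, v i = _
    rw [Finset.sum_congr rfl hall]; simp [hk]
  rw [hQeq, hUeq]
  rcases h2 with h2 | h2
  · obtain ⟨i₀, hi₀⟩ := Finset.card_eq_one.1 (show K.card = 1 by omega)
    refine ⟨i₀, a, 1, Or.inl rfl, fun i => ?_, by rw [h2]; ring⟩
    split_ifs with hi
    · have := hall i (by simp [hi₀, hi])
      simp only [v] at this; omega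
    · have : v i = 0 := by
        by_contra hne
        have h3 : i ∈ K := Finset.mem_filter.2 ⟨Finset.mem_univ _, hne⟩
        rw [hi₀, Finset.mem_singleton] at h3
        exact hi h3
      simp only [v] at this; omega
  · have hc : Kᶜ.card = 1 := by rw [Finset.card_compl]; omega
    obtain ⟨i₀, hi₀⟩ := Finset.card_eq_one.1 hc
    refine ⟨i₀, a + 1, -1, Or.inr rfl, fun i => ?_, by rw [h2]; ring⟩
    split_ifs with hi
    · have h3 : i ∈ Kᶜ := by simp [hi₀, hi]
      simp [hK, v] at h3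
      omega
    · have h3 : i ∈ K := by
        by_contra hne
        have : i ∈ Kᶜ := Finset.mem_compl.2 hne
        rw [hi₀, Finset.mem_singleton] at this
        exact hi this
      have := hall i h3
      simp only [v] at this; omega

/-- When all non-identity elements of `S` have centraliser `C` in `G`. -/
theorem fixedPointFree (h : Hyp G S) (hC : C ≤ centralizer (S : Set Γ))
    (hn : 1 < Nat.card S)
    (hfpf : ∀ t : S, t ≠ 1 → G ⊓ centralizer ({(t : Γ)} : Set Γ) = C) {ψ : Γ → ℂ}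
    (hψ : IsIrrCharacter Γ ψ) (hψG : IsIrrCharacter G (fun y : G => ψ y)) :
    ∃ (β : IrrCharacter C) (ε : ℤ) (f : S →* ℂˣ), (ε = 1 ∨ ε = -1) ∧
      (∀ (c : C) (t : S), t ≠ 1 → ψ ((c : Γ) * t) = (ε : ℂ) * (β : C → ℂ) c * (f t : ℂ)) ∧
      ∃ ϑ : C → ℂ, IsCharacter C ϑ ∧
        ∀ c : C, ψ c = (Nat.card S : ℂ) * ϑ c + (ε : ℂ) * (β : C → ℂ) c := by
  choose m hm using fun β : IrrCharacter C =>
    coef_eq_sum h hC (Char.isCharacter_of_irr hψ) β
  have hclS : ∀ F : S → ℂ, IsClassFunction S F := fun F g x => by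
    rw [h.comm x g, mul_inv_cancel_right]
  have hcardI : (Fintype.card (IrrCharacter S) : ℤ) = Nat.card S := by
    have h1 : ((Fintype.card (IrrCharacter S) : ℕ) : ℂ) = (Nat.card S : ℂ) := by
      rw [← Char.sum_irr_degree_sq, Finset.sum_congr rfl fun l _ => by rw [irr_one_eq_one h l]]
      simp
    exact_mod_cast h1
  set D : IrrCharacter C → ℤ := fun β => (Fintype.card (IrrCharacter S) : ℤ) *
    ∑ l, (m β l : ℤ) ^ 2 - (∑ l, (m β l : ℤ)) ^ 2 with hDdef
  have hD : ∀ β, (D β : ℂ) = ∑ t ∈ Finset.univ.erase (1 : S),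
      coef C ψ (β : C → ℂ) t * conj (coef C ψ (β : C → ℂ) t) := by
    intro β
    rw [Finset.sum_erase_eq_sub (Finset.mem_univ 1), Char.sum_mul_conj_eq_card_mul_classInner,
      Char.classInner_eq_sum_mul_conj (hclS _)]
    have e1 : ∀ l : IrrCharacter S, classInner (coef C ψ (β : C → ℂ)) (l : S → ℂ) = (m β l : ℂ) := by
      intro l
      rw [show coef (S := S) C ψ (β : C → ℂ) = ∑ l, (m β l : ℂ) • (l : S → ℂ) from
        funext fun t => by simp [hm]]
      exact Char.classInner_sum_smul_irr _ l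
    have e2 : coef (S := S) C ψ (β : C → ℂ) 1 = ∑ l, (m β l : ℂ) := by simp [hm, irr_one_eq_one h]
    simp only [e1, e2, map_natCast, map_sum, hDdef, hcardI]
    push_cast
    ring_nf
  have hDsum : ∑ β, D β = (Nat.card S : ℤ) - 1 := by
    have : ((∑ β, D β : ℤ) : ℂ) = (((Nat.card S : ℤ) - 1 : ℤ) : ℂ) := by
      push_cast
      simp only [hD]
      rw [Finset.sum_comm, Finset.sum_congr rfl fun t ht =>
        sum_sq_coef h hC t (hfpf t (Finset.ne_of_mem_erase ht)) hψ hψG, Finset.sum_const,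
        Finset.card_erase_of_mem (Finset.mem_univ _), Finset.card_univ, ← Nat.card_eq_fintype_card,
        nsmul_eq_mul, mul_one, Nat.cast_sub Nat.card_pos, Nat.cast_one]
    exact_mod_cast this
  have hDnn : ∀ β, 0 ≤ D β := fun β => by
    simp only [hDdef]
    have := sq_sum_le_card_mul_sum_sq (s := Finset.univ) (f := fun l => (m β l : ℤ))
    rw [Finset.card_univ] at this
    linarith
  have hDle : ∀ β, D β ≤ (Fintype.card (IrrCharacter S) : ℤ) - 1 := fun β => by
    rw [hcardI, ← hDsum]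
    exact Finset.single_le_sum (fun β _ => hDnn β) (Finset.mem_univ β)
  obtain ⟨β₀, hβ₀⟩ : ∃ β, D β ≠ 0 := by
    by_contra hc
    push Not at hc
    rw [Finset.sum_eq_zero (fun β _ => hc β)] at hDsum
    omega
  rcases variance _ (hDle β₀) with hcon | ⟨l₀, a, ε, hε, hma, hDeq⟩
  · exfalso; apply hβ₀
    obtain ⟨l'⟩ : Nonempty (IrrCharacter S) :=
      ⟨⟨_, Char.isIrrCharacter_const_one⟩⟩
    simp only [hDdef]
    rw [Finset.sum_congr rfl fun l _ => by rw [hcon l l'],
      Finset.sum_congr rfl fun (l : IrrCharacter S) _ => hcon l l']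
    simp only [Finset.sum_const, Finset.card_univ, nsmul_eq_mul]
    ring
  have hothers : ∀ β, β ≠ β₀ → ∀ l l', m β l = m β l' := by
    intro β hne
    have hz : D β = 0 := by
      have h1 : D β₀ + D β ≤ (Nat.card S : ℤ) - 1 := by
        rw [← hDsum, ← Finset.sum_pair (f := D) hne.symm]
        exact Finset.sum_le_sum_of_subset_of_nonneg (Finset.subset_univ _) fun β _ _ => hDnn β
      have h2 : D β₀ = (Nat.card S : ℤ) - 1 := by rw [← hcardI]; exact hDeq
      have := hDnn β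
      omega
    rcases variance _ (hDle β) with hcon | ⟨_, _, _, _, _, he⟩
    · exact fun l l' => by exact_mod_cast hcon l l'
    · rw [show D β = (Fintype.card (IrrCharacter S) : ℤ) - 1 from he] at hz
      rw [hcardI] at hz
      omega
  obtain ⟨l₁, hl₁⟩ : ∃ l₁ : IrrCharacter S, l₁ ≠ l₀ :=
    Fintype.exists_ne_of_one_lt_card (by omega) l₀
  have hm0 : ∀ l, (m β₀ l : ℂ) = (m β₀ l₁ : ℂ) + if l = l₀ then (ε : ℂ) else 0 := by
    intro l
    have h1 : (m β₀ l : ℤ) = _ := hma l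
    have h2 : (m β₀ l₁ : ℤ) = _ := hma l₁
    rw [if_neg hl₁] at h2
    have : (m β₀ l : ℤ) = (m β₀ l₁ : ℤ) + if l = l₀ then ε else 0 := by
      rw [h1, h2, add_zero]; congr 1; split_ifs <;> rfl
    have := congrArg (fun z : ℤ => (z : ℂ)) this
    push_cast at this
    simpa using this
  have hreg : ∀ t : S, ∑ l : IrrCharacter S, (l : S → ℂ) t =
      if t = 1 then (Nat.card S : ℂ) else 0 := by
    intro t
    have := Char.sum_irr_degree_mul t
    simpa [irr_one_eq_one h] using this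
  obtain ⟨f, hf⟩ := irr_twist_linear l₀ h
  have hcoef : ∀ β t, coef C ψ ((β : IrrCharacter C) : C → ℂ) t =
      (m β l₁ : ℂ) * (if t = 1 then (Nat.card S : ℂ) else 0) +
        if β = β₀ then (ε : ℂ) * (f t : ℂ) else 0 := by
    intro β t
    rw [hm, ← hreg, Finset.mul_sum]
    split_ifs with hb
    · subst hb
      rw [Finset.sum_congr rfl fun l _ => by rw [hm0 l]]
      simp only [add_mul, Finset.sum_add_distrib, ite_mul, zero_mul]
      rw [Finset.sum_ite_eq' _ l₀, if_pos (Finset.mem_univ _), hf]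
    · rw [add_zero]
      exact Finset.sum_congr rfl fun l _ => by rw [hothers β hb l l₁]
  have hval : ∀ (c : C) (t : S), ψ ((c : Γ) * t) =
      (if t = 1 then (Nat.card S : ℂ) else 0) *
        ∑ β : IrrCharacter C, (m β l₁ : ℂ) * (β : C → ℂ) c +
      (ε : ℂ) * (β₀ : C → ℂ) c * (f t : ℂ) := by
    intro c t
    rw [slice_eq_sum hC (Char.irr_isClassFunction hψ) t c]
    simp only [hcoef, add_mul, Finset.sum_add_distrib, Finset.mul_sum]
    congr 1
    · exact Finset.sum_congr rfl fun β _ => by ring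
    · simp only [ite_mul, zero_mul, Finset.sum_ite_eq', Finset.mem_univ, if_true]
      ring
  refine ⟨β₀, ε, f, hε, fun c t ht => by rw [hval, if_neg ht, zero_mul, zero_add], _,
    Char.isCharacter_sum Finset.univ fun β _ =>
      Char.isCharacter_nsmul (Char.isCharacter_of_irr β.2) (m β l₁), fun c => ?_⟩
  have h1 := hval c 1
  simp only [OneMemClass.coe_one, mul_one, if_true, map_one, Units.val_one] at h1
  rw [h1]
  simp [Finset.sum_apply, nsmul_eq_mul]

end Cfsg.Agent.CyclicCorr
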