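import Mathlib
import Cfsg.Agent.CharExt.Inertia
import Cfsg.Agent.CharExt.GoingDown

/-!
# Relative M-groups
-/

namespace Cfsg.Agent.CharExt

universe u

open scoped ComplexConjugate

theorem indFun_top {G : Type u} [Group G] [Fintype G] {χ : G → ℂ} (hχ : Cfsg.IsClassFunction G χ) :
    Cfsg.indFun (⊤ : Subgroup G) (fun x => χ x) = χ := by
  funext g
  rw [CharInd.indFun_apply]
  have : ∀ x : G, Cfsg.extendByZero (⊤ : Subgroup G) (fun x => χ x) (x⁻¹ * g * x) = χ g := by
    intro x
    rw [CharInd.extendByZero_mem _ _ (Subgroup.mem_top _)]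
    simpa using hχ g x⁻¹
  simp only [this, Finset.sum_const, Finset.card_univ, nsmul_eq_mul, Subgroup.card_top,
    ← Nat.card_eq_fintype_card]
  exact inv_mul_cancel_left₀ (Nat.cast_ne_zero.mpr Nat.card_pos.ne') _

theorem eq_bot_of_le_commutator {G : Type u} [Group G] [hs : Group.IsSolvable G] {A : Subgroup G}
    (h : A ≤ ⁅A, A⁆) : A = ⊥ := by
  obtain ⟨n, hn⟩ := hs.solvable
  have : ∀ j, A ≤ derivedSeries G j := by
    intro j
    induction j with
    | zero => simp
    | succ j ih => exact h.trans ((Subgroup.commutator_mono ih ih).trans (derivedSeries_succ G j).ge)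
  exact le_bot_iff.mp (hn ▸ this n)

/-- Every chief factor of every subgroup over `N` has non-square order. -/
def NonsquareChief {G : Type u} [Group G] (N : Subgroup G) : Prop :=
  ∀ (H K L : Subgroup G), N ≤ L → L < K → K ≤ H → (∀ h ∈ H, ∀ k ∈ K, h * k * h⁻¹ ∈ K) →
    (∀ h ∈ H, ∀ l ∈ L, h * l * h⁻¹ ∈ L) →
    (∀ M : Subgroup G, L ≤ M → M ≤ K → (∀ h ∈ H, ∀ m ∈ M, h * m * h⁻¹ ∈ M) → M = L ∨ M = K) →
    ¬ IsSquare (L.relIndex K)

theorem NonsquareChief.subgroupOf {G : Type u} [Group G] {N : Subgroup G} (h : NonsquareChief N)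
    {T : Subgroup G} (hNT : N ≤ T) : NonsquareChief (N.subgroupOf T) := by
  intro H K L hNL hLK hKH hK hL hM
  have hinj := T.subtype_injective
  have hconv : ∀ (A B : Subgroup T), (∀ a ∈ A, ∀ b ∈ B, a * b * a⁻¹ ∈ B) →
      ∀ a ∈ A.map T.subtype, ∀ b ∈ B.map T.subtype, a * b * a⁻¹ ∈ B.map T.subtype := by
    rintro A B hAB _ ⟨a, ha, rfl⟩ _ ⟨b, hb, rfl⟩
    exact ⟨a * b * a⁻¹, hAB a ha b hb, by simp⟩
  have := h (H.map T.subtype) (K.map T.subtype) (L.map T.subtype) ?_ ?_ ?_ (hconv H K hK)
    (hconv H L hL) ?_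
  · rwa [Subgroup.relIndex_map_map_of_injective L K hinj] at this
  · intro x hx
    exact ⟨⟨x, hNT hx⟩, hNL hx, rfl⟩
  · exact (Subgroup.map_lt_map_iff_of_injective hinj).mpr hLK
  · exact Subgroup.map_mono hKH
  · intro M hLM hMK hMH
    have hMT : M ≤ T := hMK.trans (Subgroup.map_subtype_le K)
    have hcases := hM (M.subgroupOf T) (fun x hx => hLM ⟨x, hx, rfl⟩)
      (fun x hx => by
        obtain ⟨y, hy, he⟩ := hMK hx
        rwa [← hinj he])
      (fun a ha m hm => hMH _ ⟨a, ha, rfl⟩ _ hm)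
    rcases hcases with h' | h'
    · left; rw [← h', Subgroup.map_subgroupOf_eq_of_le hMT]
    · right; rw [← h', Subgroup.map_subgroupOf_eq_of_le hMT]

theorem relative_m_aux : ∀ (n : ℕ) (G : Type u) [Group G] [Fintype G] (N : Subgroup G) [N.Normal],
    Nat.card G = n → Group.IsSolvable (G ⧸ N) → NonsquareChief N →
    ∀ χ : G → ℂ, Cfsg.IsIrrCharacter G χ →
      ∃ (H : Subgroup G) (hNH : N ≤ H) (ψ : H → ℂ), Cfsg.IsIrrCharacter H ψ ∧
        Cfsg.indFun H ψ = χ ∧ Cfsg.IsIrrCharacter N (fun n : N => ψ ⟨(n : G), hNH n.2⟩) := by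
  intro n
  induction n using Nat.strong_induction_on with
  | h n IH =>
    intro G _ _ N _ hn hsolv hchief χ hχ
    classical
    by_cases hirr : Cfsg.IsIrrCharacter N (fun m : N => χ m)
    · exact ⟨⊤, le_top, fun x => χ x, CharInd.irr_comp_surjective
        (Subgroup.topEquiv : (⊤ : Subgroup G) ≃* G).toMonoidHom
        (Subgroup.topEquiv : (⊤ : Subgroup G) ≃* G).surjective hχ,
        indFun_top (Char.irr_isClassFunction hχ), hirr⟩
    -- a minimal normal subgroup with irreducible restriction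
    obtain ⟨K, hKmin⟩ := Set.Finite.exists_minimal
      (s := {K : Subgroup G | K.Normal ∧ N ≤ K ∧ Cfsg.IsIrrCharacter K (fun k : K => χ k)})
      (Set.toFinite _) ⟨⊤, inferInstance, le_top, CharInd.irr_comp_surjective
        (Subgroup.topEquiv : (⊤ : Subgroup G) ≃* G).toMonoidHom
        (Subgroup.topEquiv : (⊤ : Subgroup G) ≃* G).surjective hχ⟩
    obtain ⟨hKn, hNK, hKirr⟩ := hKmin.1
    have hNK' : N < K := lt_of_le_of_ne hNK (fun h => by subst h; exact hirr hKirr)
    obtain ⟨L, hLmax⟩ := Set.Finite.exists_maximal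
      (s := {L : Subgroup G | L.Normal ∧ N ≤ L ∧ L < K})
      (Set.toFinite _) ⟨N, inferInstance, le_rfl, hNK'⟩
    obtain ⟨hLn, hNL, hLK⟩ := hLmax.1
    haveI := hKn
    haveI := hLn
    have hchief' : ∀ M : Subgroup G, M.Normal → L ≤ M → M ≤ K → M = L ∨ M = K := by
      intro M hMn hLM hMK
      by_cases h : M = K
      · exact Or.inr h
      · exact Or.inl (le_antisymm (hLmax.2 ⟨hMn, hNL.trans hLM, lt_of_le_of_ne hMK h⟩ hLM) hLM)
    have hab : ⁅K, K⁆ ≤ L := by
      rcases hchief' (L ⊔ ⁅K, K⁆) inferInstance le_sup_left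
        (sup_le hLK.le (Subgroup.commutator_le_left K K)) with h | h
      · exact h ▸ le_sup_right
      · exfalso
        have hsolv' : Group.IsSolvable (G ⧸ L) := by
          refine solvable_of_surjective
            (f := QuotientGroup.map N L (MonoidHom.id G) (by simpa using hNL)) ?_
          intro x
          induction x using QuotientGroup.induction_on with
          | H x => exact ⟨(x : G ⧸ N), rfl⟩
        have h1 : K.map (QuotientGroup.mk' L) = ⊥ := by
          refine eq_bot_of_le_commutator ?_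
          conv_lhs => rw [← h]
          rw [Subgroup.map_sup, Subgroup.map_commutator,
            (Subgroup.map_eq_bot_iff L).mpr (by rw [QuotientGroup.ker_mk']), bot_sup_eq]
        rw [Subgroup.map_eq_bot_iff, QuotientGroup.ker_mk'] at h1
        exact hLK.not_ge h1
    have hnsq : ¬ IsSquare (L.relIndex K) :=
      hchief ⊤ K L hNL hLK le_top (fun h _ k hk => hKn.conj_mem k hk h)
        (fun h _ l hl => hLn.conj_mem l hl h)
        (fun M hLM hMK hM => hchief' M ⟨fun m hm g => hM g (Subgroup.mem_top g) m hm⟩ hLM hMK)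
    rcases going_down K L hLK.le hchief' hab (fun k : K => χ k) hKirr
        (fun g k => Char.irr_isClassFunction hχ (k : G) g) with h1 | ⟨φ, e, -, -, he⟩ | ⟨F, hF, hcard, hsum⟩
    · exact absurd (hKmin.2 ⟨hLn, hNL, h1⟩ hLK.le) hLK.not_ge
    · exact absurd ⟨e, he.symm.trans (sq e)⟩ hnsq
    have hcard1 : 1 < F.card := by
      rw [hcard]
      refine lt_of_le_of_ne (Nat.pos_of_ne_zero Subgroup.index_ne_zero_of_finite) fun h => ?_
      exact hLK.not_ge (Subgroup.relIndex_eq_one.mp h.symm)
    obtain ⟨φ, hφ, φ', hφ', hne⟩ := Finset.one_lt_card.mp hcard1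
    have hcoef : ∀ ξ ∈ F, Cfsg.classInner (fun x : L => χ x) ξ = 1 := by
      intro ξ hξ
      rw [show (fun x : L => χ x) = ∑ f ∈ F, f from hsum, Char.classInner_sum_left,
        Finset.sum_eq_single_of_mem ξ hξ (fun f hf hne' => Char.classInner_irr_ne (hF f hf) (hF ξ hξ) hne'),
        Char.classInner_irr_self (hF ξ hξ)]
    set T := inertia L φ
    have hT : T ≠ ⊤ := by
      intro hT
      have hm := mem_conjClass_of_constituent L hχ (hF φ hφ) (hF φ' hφ')
        (by rw [hcoef φ hφ]; exact one_ne_zero) (by rw [hcoef φ' hφ']; exact one_ne_zero)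
      rw [conjClass_eq_singleton L hT, Finset.mem_singleton] at hm
      exact hne hm.symm
    have hLT : L ≤ T := le_inertia L (Char.irr_isClassFunction (hF φ hφ))
    obtain ⟨ψ, hψ, hind, -⟩ := Cfsg.Agent.S0854.result L φ (hF φ hφ) T
      (fun g => ⟨fun h m => congrFun h m, fun h => funext h⟩) hLT χ hχ
      (by rw [hcoef φ hφ]; exact one_ne_zero)
    have hNT : N ≤ T := hNL.trans hLT
    haveI : (N.subgroupOf T).Normal := Subgroup.normal_subgroupOf
    have hsolvT : Group.IsSolvable (T ⧸ N.subgroupOf T) := by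
      refine solvable_of_solvable_injective
        (f := QuotientGroup.map (N.subgroupOf T) N T.subtype le_rfl) ?_
      rw [injective_iff_map_eq_one]
      intro x
      induction x using QuotientGroup.induction_on with
      | H x =>
        intro hx
        exact (QuotientGroup.eq_one_iff x).mpr ((QuotientGroup.eq_one_iff (x : G)).mp hx)
    have hlt : Nat.card T < n := hn ▸ lt_of_le_of_ne (Subgroup.card_le_card_group T)
      (fun h => hT (Subgroup.eq_top_of_card_eq T h))
    obtain ⟨U, hNU, ψ', hψ', hind', hres'⟩ := IH (Nat.card T) hlt T (N.subgroupOf T) rfl hsolvT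
      (hchief.subgroupOf hNT) ψ hψ
    obtain ⟨lam', hlam, hval⟩ := indFun_map T U ψ'
    have hNU' : N ≤ U.map T.subtype := fun x hx => ⟨⟨x, hNT hx⟩, hNU hx, rfl⟩
    refine ⟨U.map T.subtype, hNU', lam', ?_, ?_, ?_⟩
    · let e := (Subgroup.equivMapOfInjective U T.subtype T.subtype_injective)
      have : lam' = fun v => ψ' (e.symm v) := by
        funext v
        obtain ⟨u, rfl⟩ := e.surjective v
        simp only [MulEquiv.symm_apply_apply]
        exact hval u
      rw [this]
      exact CharInd.irr_comp_surjective e.symm.toMonoidHom e.symm.surjective hψ'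
    · rw [hlam, hind', hind]
    · let eN : N.subgroupOf T ≃* N := Subgroup.subgroupOfEquivOfLe hNT
      have : (fun m : N => lam' ⟨(m : G), hNU' m.2⟩) =
          fun m : N => ψ' ⟨⟨(m : G), hNT m.2⟩, hNU m.2⟩ :=
        funext fun m => hval ⟨⟨(m : G), hNT m.2⟩, hNU m.2⟩
      rw [this]
      exact CharInd.irr_comp_surjective eN.symm.toMonoidHom eN.symm.surjective hres'

end Cfsg.Agent.CharExt
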