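import Mathlib
import Cfsg.Agent.CharExt.Inertia
import Cfsg.Agent.CharExt.RelativeM
import Cfsg.Agent.Char.Kernel
import Cfsg.Agent.Char.Linear
import Cfsg.Agent.Cores.Fitting

/-!
# Monomiality over a solvable normal subgroup with abelian Sylow subgroups
-/

namespace Cfsg.Agent.CharExt

universe u

open scoped ComplexConjugate commutatorElement

/-- Every `p`-subgroup of `N` is commutative, for every prime `p`. -/
def AbSylow {G : Type u} [Group G] (N : Subgroup G) : Prop :=
  ∀ p : ℕ, p.Prime → ∀ Q : Subgroup G, Q ≤ N → IsPGroup p Q → ∀ a ∈ Q, ∀ b ∈ Q, a * b = b * a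

theorem absylow_of_sylow {G : Type u} [Group G] (N : Subgroup G)
    (hab : ∀ (p : ℕ) [Fact p.Prime] (P : Sylow p N), ∀ a ∈ P, ∀ b ∈ P, a * b = b * a) :
    AbSylow N := by
  intro p hp Q hQN hQ a ha b hb
  haveI : Fact p.Prime := ⟨hp⟩
  have hQ' : IsPGroup p (Q.subgroupOf N) := hQ.of_equiv (Subgroup.subgroupOfEquivOfLe hQN).symm
  obtain ⟨P, hP⟩ := hQ'.exists_le_sylow
  exact congrArg Subtype.val (hab p P ⟨a, hQN ha⟩ (hP ha) ⟨b, hQN hb⟩ (hP hb))

theorem AbSylow.subgroupOf {G : Type u} [Group G] {N : Subgroup G} (h : AbSylow N)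
    (T : Subgroup G) : AbSylow (N.subgroupOf T) := by
  intro p hp Q hQN hQ a ha b hb
  apply Subtype.ext
  refine h p hp (Q.map T.subtype) ?_ (hQ.map T.subtype) _ ⟨a, ha, rfl⟩ _ ⟨b, hb, rfl⟩
  rintro _ ⟨x, hx, rfl⟩
  exact hQN hx

/-- A finite nilpotent group all of whose Sylow subgroups are abelian is abelian. -/
theorem comm_of_nilpotent {F : Type u} [Group F] [Finite F] [hF : Group.IsNilpotent F]
    (h : ∀ (p : ℕ) [Fact p.Prime] (P : Sylow p F), ∀ a ∈ P, ∀ b ∈ P, a * b = b * a) (a b : F) :
    a * b = b * a := by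
  obtain ⟨e⟩ := ((Group.isNilpotent_of_finite_tfae (G := F)).out 0 4).mp hF
  obtain ⟨x, rfl⟩ := e.surjective a
  obtain ⟨y, rfl⟩ := e.surjective b
  rw [← map_mul, ← map_mul]
  congr 1
  funext p P
  haveI : Fact (p : ℕ).Prime := ⟨Nat.prime_of_mem_primeFactors p.2⟩
  exact Subtype.ext (h p P _ (x p P).2 _ (y p P).2)

theorem monomial_aux : ∀ (n : ℕ) (G : Type u) [Group G] [Fintype G] (N : Subgroup G) [N.Normal],
    Nat.card G = n → Group.IsSolvable N → AbSylow N →
    ∀ χ : G → ℂ, Cfsg.IsIrrCharacter G χ → Cfsg.IsIrrCharacter N (fun m : N => χ m) →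
      ∃ (U : Subgroup G) (lam : U → ℂ), Cfsg.IsCharacter U lam ∧ lam 1 = 1 ∧
        Cfsg.indFun U lam = χ := by
  intro n
  induction n using Nat.strong_induction_on with
  | h n IH =>
    intro G _ _ N _ hn hsolv hab χ hχ hχN
    classical
    by_cases h1 : χ 1 = 1
    · exact ⟨⊤, fun x => χ x, CharInd.isCharacter_res _ (Char.isCharacter_of_irr hχ), h1,
        indFun_top (Char.irr_isClassFunction hχ)⟩
    by_cases hred : ∃ R : Subgroup G, ∃ _ : R.Normal, R ≤ N ∧ ∃ φ : R → ℂ,
        Cfsg.IsIrrCharacter R φ ∧ Cfsg.classInner (fun r : R => χ r) φ ≠ 0 ∧ inertia R φ ≠ ⊤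
    · obtain ⟨R, hRn, hRN, φ, hφ, hcon, hT⟩ := hred
      set T := inertia R φ
      obtain ⟨ψ, hψ, hind, hψN⟩ := exists_correspondent N R hRN hχ hχN hφ hcon
      haveI : (N.subgroupOf T).Normal := Subgroup.normal_subgroupOf
      have hsolvT : Group.IsSolvable (N.subgroupOf T) := by
        let f : N.subgroupOf T →* N :=
          { toFun := fun x => ⟨((x : T) : G), x.2⟩, map_one' := rfl, map_mul' := fun _ _ => rfl }
        refine solvable_of_solvable_injective (f := f) fun a b hh => ?_
        exact Subtype.ext (Subtype.ext (congrArg (fun z : N => (z : G)) hh))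
      have hlt : Nat.card T < n := hn ▸ lt_of_le_of_ne (Subgroup.card_le_card_group T)
        (fun h => hT (Subgroup.eq_top_of_card_eq T h))
      obtain ⟨U, lam, hlam, hlam1, hind'⟩ := IH (Nat.card T) hlt T (N.subgroupOf T) rfl hsolvT
        (hab.subgroupOf T) ψ hψ hψN
      obtain ⟨lam', hlam', hval⟩ := indFun_map T U lam
      let e := (Subgroup.equivMapOfInjective U T.subtype T.subtype_injective)
      have hl : lam' = fun v => lam (e.symm v) := by
        funext v
        obtain ⟨u, rfl⟩ := e.surjective v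
        simp only [MulEquiv.symm_apply_apply]
        exact hval u
      refine ⟨U.map T.subtype, lam', ?_, ?_, ?_⟩
      · rw [hl]; exact CharInd.isCharacter_comp e.symm.toMonoidHom hlam
      · rw [hl]; simp [hlam1]
      · rw [hlam', hind', hind]
    · exfalso
      apply h1
      push Not at hred
      obtain ⟨k, σ, hσ, rfl⟩ := hχ
      have hscal : ∀ R : Subgroup G, R.Normal → R ≤ N →
          (∀ a ∈ R, ∀ b ∈ R, σ (a * b * a⁻¹ * b⁻¹) = 1) →
          ∀ r ∈ R, ∃ ω : ℂ, σ r = ω • (LinearMap.id : (Fin k → ℂ) →ₗ[ℂ] (Fin k → ℂ)) := by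
        intro R hR hRN hcomm r hr
        obtain ⟨φ, m, hm, hm'⟩ := Char.exists_irr_constituent
          (CharInd.isCharacter_res R (Char.isCharacter_of_irr ⟨k, σ, hσ, rfl⟩))
          (fun h => Char.irr_one_ne_zero ⟨k, σ, hσ, rfl⟩ (congrFun h 1))
        have hcon : Cfsg.classInner (fun x : R => σ.character x) (φ : R → ℂ) ≠ 0 := by
          rw [hm']; exact_mod_cast hm.ne'
        have hT := hred R hR hRN φ φ.2 hcon
        obtain ⟨e, -, -, hres, hdeg⟩ := clifford_data R ⟨k, σ, hσ, rfl⟩ φ.2 hcon
        rw [conjClass_eq_singleton R hT, Finset.sum_singleton] at hres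
        rw [hT, Subgroup.index_top, Nat.cast_one, mul_one] at hdeg
        -- `φ` is linear
        have hker : ∀ c ∈ commutator R, (φ : R → ℂ) c = (φ : R → ℂ) 1 := by
          intro c hc
          have he : (e : ℂ) ≠ 0 := by
            intro h0
            rw [h0, zero_mul] at hdeg
            exact Char.irr_one_ne_zero ⟨k, σ, hσ, rfl⟩ hdeg
          have hσc : σ (c : G) = 1 := by
            have hle : commutator R ≤ (σ.comp R.subtype).ker := by
              rw [commutator_eq_closure, Subgroup.closure_le]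
              rintro _ ⟨a, b, rfl⟩
              show σ (⁅a, b⁆ : R) = 1
              rw [commutatorElement_def]
              exact hcomm a a.2 b b.2
            exact hle hc
          have hx := congrFun hres c
          simp only [Pi.smul_apply, smul_eq_mul] at hx
          have h1' : σ.character c = σ.character 1 := by
            simp [Representation.character, hσc]
          rw [h1', hdeg] at hx
          exact (mul_left_cancel₀ he hx).symm
        obtain ⟨η, hη, hdesc⟩ := Char.irr_exists_descend φ.2 (commutator R) hker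
        have hφ1 : (φ : R → ℂ) 1 = 1 := by
          rw [hdesc 1, QuotientGroup.mk_one]
          exact Char.irr_degree_one_of_comm (fun a b => @mul_comm (Abelianization R) _ a b) hη
        obtain ⟨f, hf⟩ := Char.exists_monoidHom_of_degree_one (Char.isCharacter_of_irr φ.2) hφ1
        rw [← Char.norm_character_eq_iff σ r]
        have hx := congrFun hres ⟨r, hr⟩
        simp only [Pi.smul_apply, smul_eq_mul] at hx
        rw [hx, hf, norm_mul, Complex.norm_natCast,
          Complex.norm_eq_one_of_pow_eq_one (n := orderOf (⟨r, hr⟩ : R))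
            (by rw [← Units.val_pow_eq_pow_val, ← map_pow, pow_orderOf_eq_one, map_one, Units.val_one])
            (orderOf_pos _).ne', mul_one]
        rw [hφ1, mul_one, σ.char_one] at hdeg
        have : Module.finrank ℂ (Fin k → ℂ) = e := by exact_mod_cast hdeg
        rw [this]
      -- the image of `N` modulo the kernel of `σ`
      set Ker := N ⊓ σ.ker
      haveI : Ker.Normal := Subgroup.normal_inf_normal N σ.ker
      let π := QuotientGroup.mk' Ker
      set Nb := N.map π
      haveI : Nb.Normal := (inferInstance : N.Normal).map π (QuotientGroup.mk'_surjective Ker)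
      have hπker : π.ker ≤ N := by rw [QuotientGroup.ker_mk']; exact inf_le_left
      haveI hsolvb : Group.IsSolvable Nb :=
        solvable_of_surjective (π.subgroupMap_surjective N)
      have hAb : ∀ (p : ℕ) [Fact p.Prime] (P : Sylow p Nb), ∀ a ∈ P, ∀ b ∈ P, a * b = b * a := by
        intro p hp P a ha b hb
        obtain ⟨P', rfl⟩ := Sylow.mapSurjective_surjective (π.subgroupMap_surjective N) p P
        rw [← SetLike.mem_coe] at ha hb
        obtain ⟨a', ha', rfl⟩ := ha
        obtain ⟨b', hb', rfl⟩ := hb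
        rw [← map_mul, ← map_mul]
        congr 1
        apply Subtype.ext
        exact hab p hp.out (P'.1.map N.subtype) (Subgroup.map_subtype_le _)
          (P'.2.map N.subtype) _ ⟨a', ha', rfl⟩ _ ⟨b', hb', rfl⟩
      set F := Cfsg.fittingSubgroup Nb
      haveI : Group.IsNilpotent F := Cores.fittingSubgroup_isNilpotent
      have hFcomm : ∀ a b : F, a * b = b * a := by
        refine comm_of_nilpotent fun p hp P a ha b hb => ?_
        obtain ⟨Q, hQ⟩ := (P.2.map F.subtype).exists_le_sylow
        exact Subtype.ext (hAb p Q _ (hQ ⟨a, ha, rfl⟩) _ (hQ ⟨b, hb, rfl⟩))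
      set R := (F.map Nb.subtype).comap π
      haveI : (F.map Nb.subtype).Normal := Cores.normal_map_subtype_of_characteristic _
      have hRn : R.Normal := Subgroup.Normal.comap inferInstance π
      have hRN : R ≤ N := by
        intro x hx
        have h1 : π x ∈ Nb := Subgroup.map_subtype_le _ hx
        obtain ⟨y, hy, hxy⟩ := h1
        have : y⁻¹ * x ∈ π.ker := by rw [MonoidHom.mem_ker, map_mul, map_inv, hxy, inv_mul_cancel]
        have h2 := N.mul_mem hy (hπker this)
        simpa using h2
      have hσker : ∀ x : G, π x = 1 → σ x = 1 := fun x hx =>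
        ((QuotientGroup.eq_one_iff x).mp hx : x ∈ Ker).2
      have hR : ∀ r ∈ R, ∃ ω : ℂ, σ r = ω • (LinearMap.id : (Fin k → ℂ) →ₗ[ℂ] (Fin k → ℂ)) := by
        refine hscal R hRn hRN fun a ha b hb => hσker _ ?_
        obtain ⟨a', ha', hae⟩ := ha
        obtain ⟨b', hb', hbe⟩ := hb
        have h := congrArg (fun z : F => ((z : Nb) : G ⧸ Ker)) (hFcomm ⟨a', ha'⟩ ⟨b', hb'⟩)
        simp only [Subgroup.coe_mul] at h
        rw [map_mul, map_mul, map_mul, map_inv, map_inv, ← hae, ← hbe]
        simp only [Subgroup.subtype_apply]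
        rw [h]
        simp
      have hFtop : F = ⊤ := by
        refine top_le_iff.mp (le_trans ?_ Cores.centralizer_fittingSubgroup_le)
        rintro x -
        rw [Subgroup.mem_centralizer_iff]
        intro f hf
        obtain ⟨y, hy, hyx⟩ := x.2
        obtain ⟨r, hr⟩ := QuotientGroup.mk'_surjective Ker (f : G ⧸ Ker)
        have hrR : r ∈ R := ⟨f, hf, hr.symm⟩
        obtain ⟨ω, hω⟩ := hR r hrR
        have hc : σ (r * y * r⁻¹ * y⁻¹) = 1 := by
          have e1 : σ r * σ y = σ y * σ r := by
            rw [hω]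
            show (ω • LinearMap.id) ∘ₗ σ y = σ y ∘ₗ (ω • LinearMap.id)
            simp [LinearMap.smul_comp, LinearMap.comp_smul]
          rw [map_mul, map_mul, map_mul, e1, mul_assoc (σ y), ← map_mul σ r r⁻¹, mul_inv_cancel,
            map_one, mul_one, ← map_mul, mul_inv_cancel, map_one]
        have hmemN : r * y * r⁻¹ * y⁻¹ ∈ N :=
          N.mul_mem (N.mul_mem (N.mul_mem (hRN hrR) hy) (N.inv_mem (hRN hrR))) (N.inv_mem hy)
        have h2 : π (r * y * r⁻¹ * y⁻¹) = 1 := (QuotientGroup.eq_one_iff _).mpr ⟨hmemN, hc⟩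
        rw [map_mul, map_mul, map_mul, map_inv, map_inv, hr, hyx] at h2
        exact Subtype.ext (mul_inv_eq_iff_eq_mul.mp (mul_inv_eq_one.mp h2))
      have hall : ∀ y ∈ N, ∃ ω : ℂ, σ y = ω • (LinearMap.id : (Fin k → ℂ) →ₗ[ℂ] (Fin k → ℂ)) := by
        intro y hy
        exact hR y ⟨⟨π y, y, hy, rfl⟩, hFtop ▸ Subgroup.mem_top _, rfl⟩
      -- a scalar irreducible representation of `N` has degree one
      have hnorm := Char.classInner_irr_self hχN
      have habs : ∀ m : N, σ.character m * conj (σ.character m) = σ.character 1 * σ.character 1 := by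
        intro m
        rw [Complex.mul_conj', (Char.norm_character_eq_iff σ (m : G)).mpr (hall m m.2), σ.char_one]
        push_cast
        ring
      rw [Cfsg.classInner] at hnorm
      simp only [habs, Finset.sum_const, Finset.card_univ, nsmul_eq_mul,
        ← Nat.card_eq_fintype_card] at hnorm
      rw [inv_mul_cancel_left₀ (Nat.cast_ne_zero.mpr Nat.card_pos.ne'), σ.char_one] at hnorm
      have hk : Module.finrank ℂ (Fin k → ℂ) * Module.finrank ℂ (Fin k → ℂ) = 1 := by
        exact_mod_cast hnorm
      rw [σ.char_one, (mul_eq_one.mp hk).1, Nat.cast_one]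

end Cfsg.Agent.CharExt
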