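import Mathlib

/-!
# Vanishing sums of roots of unity of prime power order
-/

namespace Cfsg.Agent.CharExt

open Polynomial

/-- If a sum of roots of unity of `p`-power order vanishes, `p` divides the number of terms. -/
theorem dvd_card_of_sum_roots_eq_zero {p a : ℕ} (hp : p.Prime) {ι : Type*} (s : Finset ι)
    (z : ι → ℂ) (hz : ∀ i ∈ s, z i ^ p ^ a = 1) (h0 : ∑ i ∈ s, z i = 0) : p ∣ s.card := by
  classical
  cases a with
  | zero =>
    rw [Finset.sum_congr rfl (fun i hi => by simpa using hz i hi), Finset.sum_const, nsmul_eq_mul,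
      mul_one, Nat.cast_eq_zero] at h0
    rw [h0]; exact dvd_zero p
  | succ a =>
    haveI : NeZero (p ^ (a + 1)) := ⟨(pow_pos hp.pos _).ne'⟩
    haveI : Fact p.Prime := ⟨hp⟩
    obtain ⟨ζ, hζ⟩ : ∃ ζ : ℂ, IsPrimitiveRoot ζ (p ^ (a + 1)) :=
      ⟨_, Complex.isPrimitiveRoot_exp _ (NeZero.ne _)⟩
    have hz' : ∀ i : s, ∃ k : ℕ, ζ ^ k = z i := fun i => by
      obtain ⟨k, -, hk⟩ := hζ.eq_pow_of_pow_eq_one (hz i i.2)
      exact ⟨k, hk⟩
    choose k hk using hz'
    have hP : aeval ζ (∑ i : s, (X : ℤ[X]) ^ k i) = 0 := by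
      simp only [map_sum, map_pow, aeval_X, hk]
      rw [← h0]
      exact Finset.sum_coe_sort s z
    have hdvd : cyclotomic (p ^ (a + 1)) ℤ ∣ ∑ i : s, (X : ℤ[X]) ^ k i := by
      rw [cyclotomic_eq_minpoly hζ (NeZero.pos _)]
      exact minpoly.isIntegrallyClosed_dvd (hζ.isIntegral (NeZero.pos _)) hP
    obtain ⟨Q, hQ⟩ := hdvd
    have h1 := congrArg (Polynomial.eval 1) hQ
    rw [Polynomial.eval_mul, Polynomial.eval_one_cyclotomic_prime_pow] at h1
    simp [Polynomial.eval_finsetSum] at h1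
    exact Int.natCast_dvd_natCast.mp ⟨_, h1⟩

end Cfsg.Agent.CharExt
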